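import Cfsg.Agent.H63.RC.FiveCore
import Cfsg.Agent.H810.RC.Core
import Cfsg.Agent.H686.RC.DeadD
import Cfsg.Agent.H579.RC.Sym
import Cfsg.Agent.H8.RC.DeadHer

/-!
# S3510, row D, box D9: `PSp_4(5)` with members of orders `2` and `3` (helper63)

`dead_five_of` : everything but the box D4 (`dead_dec`, hypothesis `bDec`).
-/

set_option autoImplicit false
open Cfsg

namespace Cfsg.Agent.H63.RC

open MulAction Module Cfsg.Agent.H106.RC Cfsg.Agent.H520.RC

section norm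

variable {F : Type} {V : Type} [Field F] [Finite F] [AddCommGroup V] [Module F V] [FiniteDimensional F V]
  {B : LinearMap.BilinForm F V} {G : Type} [Group G] [Finite G] {Ω : Type} [Finite Ω] [Nonempty Ω] [MulAction G Ω]
  {N : Subgroup G} {ρ : ↥(Sp B) →* G} {ι : Type} [Finite ι] {x : ι → G} {r : ι → ℕ} {M : ι → SS B}

omit [FiniteDimensional F V] in
theorem isLin5 (h5 : Nat.card F = 5) (M : SS B) : M.IsLin := by
  apply RingEquiv.ext
  intro a
  show M.σ a = a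
  rcases five_cases h5 a with rfl | rfl | rfl | rfl | rfl
  · exact map_zero _
  · exact map_one _
  · rw [map_neg, map_one]
  · exact map_ofNat _ 2
  · rw [map_neg, map_ofNat]

omit [Finite F] [FiniteDimensional F V] in
theorem iter_sc {M : SS B} (hl : M.IsLin) (b : F) (hb : b ≠ 0) (n : ℕ) (v : V) :
    (SS.sc B b hb * M)^[n] v = b ^ n • M^[n] v := by
  induction n generalizing v with
  | zero => simp
  | succ n ih =>
    rw [Function.iterate_succ_apply', Function.iterate_succ_apply', ih, SS.mul_apply, SS.sc_apply, hl.map_smul,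
      smul_smul, pow_succ']

omit [Finite F] [FiniteDimensional F V] in
theorem iter_form {M : SS B} (hl : M.IsLin) (n : ℕ) (u v : V) : B (M^[n] u) (M^[n] v) = M.l ^ n * B u v := by
  induction n with
  | zero => simp
  | succ n ih =>
    rw [Function.iterate_succ_apply', Function.iterate_succ_apply', hl.form, ih, pow_succ']
    ring

omit [Finite G] [Finite Ω] [Nonempty Ω] in
theorem exists_lift5 (E : SpEnv Ω N ρ) (h5 : Nat.card F = 5) {x : G} {M : SS B} (hM : Lf ρ x M) {n : ℕ}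
    (hn : n.Prime) (hn2 : n ≠ 2) (hx : x ^ n = 1) : ∃ L : SS B, Lf ρ x L ∧ (∀ v, L^[n] v = v) ∧ L.l = 1 := by
  have hl := isLin5 h5 M
  obtain ⟨a, ha, h⟩ := E.pow_scal hM hx
  have h4 := five_pow4 h5 ha
  have hodd : ∃ k, n = 2 * k + 1 := hn.odd_of_ne_two hn2
  obtain ⟨b, hb, hba⟩ : ∃ b : F, b ≠ 0 ∧ b ^ n * a = 1 := by
    obtain ⟨k, rfl⟩ := hodd
    rcases Nat.even_or_odd' k with ⟨m, rfl | rfl⟩
    · refine ⟨a ^ 3, pow_ne_zero _ ha, ?_⟩
      rw [← pow_mul, ← pow_succ]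
      have e : 3 * (2 * (2 * m) + 1) + 1 = 4 * (3 * m + 1) := by ring
      rw [e, pow_mul, h4, one_pow]
    · refine ⟨a, ha, ?_⟩
      rw [← pow_succ]
      have e : 2 * (2 * m + 1) + 1 + 1 = 4 * (m + 1) := by ring
      rw [e, pow_mul, h4, one_pow]
  have hL : ∀ v, (SS.sc B b hb * M)^[n] v = v := by
    intro v
    rw [iter_sc hl, h, smul_smul, hba, one_smul]
  refine ⟨SS.sc B b hb * M, hM.of_scal ⟨b, hb, fun v => rfl⟩, hL, ?_⟩
  set L := SS.sc B b hb * M
  have hd := E.dim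
  have : Nontrivial V := Module.nontrivial_of_finrank_pos (R := F) (by omega)
  obtain ⟨u, hu⟩ := exists_ne (0 : V)
  obtain ⟨v, huv⟩ := E.form.exists_one hu
  have h1 := iter_form (isLin5 h5 L) n u v
  rw [hL, hL, huv, mul_one] at h1
  refine eq_one_of_cop ?_ h1.symm (five_pow4 h5 L.hl)
  obtain ⟨k, rfl⟩ := hodd
  have e : Nat.Coprime (2 * k + 1) (2 ^ 2) := Nat.Coprime.pow_right 2 (by simp)
  exact e

/-- **D9**, given D4 -/
theorem dead_five_of (E : SpEnv Ω N ρ) (hIH : IH (Nat.card N)) (hx : PF x r) (hcov : Cov Ω x)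
    (hM : ∀ i, Lf ρ (x i) (M i)) (h5 : Nat.card F = 5) (h4 : finrank F V = 4) (i j : ι) (hi : r i = 2) (hj : r j = 3)
    (bDec : ∀ M : ι → SS B, (∀ i, Lf ρ (x i) (M i)) → (∀ i, (M i).IsLin) → ∀ A : Submodule F V, A ≠ ⊥ → A ≠ ⊤ →
      (∀ a ∈ A, (∀ b ∈ A, B a b = 0) → a = 0) →
      (∀ i, ∀ v ∈ A, M i v ∈ A) → (∀ i, ¬ (r i).Coprime (Nat.card F) → ¬ (M i).ScalOn A) →
      (4 ≤ finrank F A ∨ 5 < Nat.card F ∨
        (3 < Nat.card F ∧ ∀ i j, ¬ (M i).ScalOn A → ¬ (M j).ScalOn A → i = j)) → False) : False := by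
  classical
  have h2 := five_two h5
  have hex : ¬ (Nat.card F = 3 ∧ finrank F V = 4) := fun h => by rw [h5] at h; exact absurd h.1 (by norm_num)
  have hL : ∀ k, ∃ L : SS B, Lf ρ (x k) L ∧ (r k ≠ 2 → (∀ v, L^[r k] v = v) ∧ L.l = 1) := by
    intro k
    by_cases hk : r k = 2
    · exact ⟨M k, hM k, fun h => (h hk).elim⟩
    · obtain ⟨L, h1, h2⟩ := exists_lift5 E h5 (hM k) (hx.prime k) hk (hx.pow k)
      exact ⟨L, h1, fun _ => h2⟩
  choose L hLf hLr using hL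
  have hl : ∀ k, (L k).IsLin := fun k => isLin5 h5 _
  have hc := Cfsg.Agent.H810.RC.comm_all E hx hLf hl
  obtain ⟨a, ha, hT2⟩ : ∃ a : F, a ≠ 0 ∧ ∀ v, L i (L i v) = a • v := by
    obtain ⟨a, ha, h⟩ := E.pow_scal (hLf i) (hx.pow i)
    rw [hi] at h
    exact ⟨a, ha, h⟩
  have D : Dat L r i j a := ⟨h5, h4, E.form, hx.prime, hx.inj, hl, hc,
    fun k hk => hx.ne k ((E.eq_one_iff (hLf k)).2 hk), hLr, hi, hj, ha, hT2⟩
  by_cases hX : ∀ v, L j (L j v) + L j v + v = 0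
  · rcases D.core_b hX with ⟨A, hA0, hA1, hA, hi, hu, ho⟩ | ⟨W, W', hW, ht, ht', hi, hi', ho⟩ | ⟨hsq, hm⟩ |
      ⟨hsq, hm, ho⟩
    · exact bDec L hLf hl A hA0 hA1 hA hi hu (Or.inr (Or.inr ⟨by rw [h5]; norm_num, ho⟩))
    · exact Cfsg.Agent.H686.RC.DD.dead_D E h2 hx hcov hLf hl hW ht ht' hi hi' ho hex
    · exact Cfsg.Agent.H579.RC.dead_sym E hIH h2 hx hcov hLf hl i hsq hT2 hm
        (fun h => by rw [h5] at h; exact absurd h (by norm_num))
    · refine Cfsg.Agent.H8.RC.dead_her E h2 hx hcov hLf hl (en (hl i)) hsq hT2 ?_ (fun k v => hc k i v) ho hex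
      intro u v
      show B (L i u) v = - B u (L i v)
      have h1 := (hl i).form u (L i v)
      rw [hT2, map_smul, hm, smul_eq_mul] at h1
      have h3 : a * (B (L i u) v + B u (L i v)) = 0 := by linear_combination h1
      exact eq_neg_of_add_eq_zero_left ((mul_eq_zero.1 h3).resolve_left ha)
  · push Not at hX
    obtain ⟨A, hA0, hA1, hA, hi, hu, ho⟩ := D.core_a hX
    exact bDec L hLf hl A hA0 hA1 hA hi hu (Or.inr (Or.inr ⟨by rw [h5]; norm_num, ho⟩))

end norm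

end Cfsg.Agent.H63.RC
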