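import Cfsg.Agent.H63.RC.FiveExc
import Cfsg.Agent.H520.RC.SpId

/-!
# S3510, `PSp_4(5)` with members of orders `2` and `3`: the case distinction (helper63)
-/

set_option autoImplicit false
open Cfsg

namespace Cfsg.Agent.H63.RC

open Module Cfsg.Agent.H520.RC

section eig

variable {F V : Type*} [Field F] [AddCommGroup V] [Module F V]

theorem kk_kk_self {X : Module.End F V} {l : F × F} {a : F} (ha : a ≠ 0)
    (hl : mulP l l = (a, 0)) {z : V} (hz : X (X z) + X z + z = 0) (h0 : kk X l z = 0) : z = 0 := by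
  have h1 := kk_kk l l hz
  rw [h0, map_zero, hl, kk_apply, zero_smul, add_zero] at h1
  rcases smul_eq_zero.1 h1.symm with h | h
  · exact (ha h).elim
  · exact h

variable [Finite F] [FiniteDimensional F V]

/-- both eigenspaces of `T` over `F[X]` are lines -/
theorem eig_span (h5 : Nat.card F = 5) (h4 : finrank F V = 4) {X T : Module.End F V}
    (hX : ∀ v, X (X v) + X v + v = 0) (hc : ∀ v, T (X v) = X (T v)) {a : F} (ha : a ≠ 0) {l : F × F}
    (hl : mulP l l = (a, 0)) {v w : V} (hv : v ≠ 0) (hw : w ≠ 0) (hTv : T v = kk X l v) (hTw : T w = - kk X l w) :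
    (∀ z, ∃ p q, z = kk X p v + kk X q w) ∧ (∀ z, T z = kk X l z → ∃ p, z = kk X p v) ∧
      ∀ z, T z = - kk X l z → ∃ q, z = kk X q w := by
  have h2 := five_two h5
  have hkc : ∀ p q z, kk X p (kk X q z) = kk X q (kk X p z) := fun p q z =>
    kk_comm (fun z => (kk_comm (fun _ => rfl) p z).symm) q z
  have hsp : ∀ z, ∃ p q, z = kk X p v + kk X q w := by
    refine span4 h5 h4 hX hv ?_
    rintro p rfl
    rw [kk_comm hc, hTv, hkc] at hTw
    apply hw
    apply kk_kk_self ha hl (hX _)
    have h3 : (2 : F) • kk X l (kk X p v) = 0 := by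
      have h6 : (2 : F) • kk X l (kk X p v) = kk X l (kk X p v) + kk X l (kk X p v) := by module
      rw [h6]
      nth_rw 1 [hTw]
      abel
    exact (smul_eq_zero.1 h3).resolve_left h2
  have hT : ∀ p q, T (kk X p v + kk X q w) = kk X l (kk X p v) - kk X l (kk X q w) := by
    intro p q
    rw [map_add, kk_comm hc, kk_comm hc, hTv, hTw, map_neg, hkc p l, hkc q l]
    abel
  refine ⟨hsp, ?_, ?_⟩
  · intro z hz
    obtain ⟨p, q, rfl⟩ := hsp z
    refine ⟨p, ?_⟩
    rw [hT, map_add] at hz
    have h3 : (2 : F) • kk X l (kk X q w) = 0 := by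
      have h6 : (2 : F) • kk X l (kk X q w) = (kk X l (kk X p v) + kk X l (kk X q w)) -
        (kk X l (kk X p v) - kk X l (kk X q w)) := by module
      rw [h6, hz, sub_self]
    have h6 := kk_kk_self ha hl (hX _) ((smul_eq_zero.1 h3).resolve_left h2)
    rw [h6, add_zero]
  · intro z hz
    obtain ⟨p, q, rfl⟩ := hsp z
    refine ⟨q, ?_⟩
    rw [hT, map_add] at hz
    have h3 : (2 : F) • kk X l (kk X p v) = 0 := by
      have h6 : (2 : F) • kk X l (kk X p v) = (kk X l (kk X p v) - kk X l (kk X q w)) -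
        (- (kk X l (kk X p v) + kk X l (kk X q w))) := by module
      rw [h6, hz, sub_self]
    have h6 := kk_kk_self ha hl (hX _) ((smul_eq_zero.1 h3).resolve_left h2)
    rw [h6, zero_add]

theorem eig_pow (h5 : Nat.card F = 5) (h4 : finrank F V = 4) {X T Y : Module.End F V}
    (hX : ∀ v, X (X v) + X v + v = 0) (hc : ∀ v, T (X v) = X (T v)) {a : F} (ha : a ≠ 0) {l : F × F}
    (hl : mulP l l = (a, 0)) {v w : V} (hv : v ≠ 0) (hw : w ≠ 0) (hTv : T v = kk X l v) (hTw : T w = - kk X l w)
    (hYX : ∀ v, Y (X v) = X (Y v)) (hYT : ∀ v, Y (T v) = T (Y v)) (hY : Function.Injective Y) : Y ^ 24 = 1 := by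
  obtain ⟨hsp, h1, h2⟩ := eig_span h5 h4 hX hc ha hl hv hw hTv hTw
  apply LinearMap.ext
  intro z
  obtain ⟨p, q, rfl⟩ := hsp z
  obtain ⟨s, hs⟩ := h1 (Y v) (by rw [← hYT, hTv, kk_comm hYX])
  obtain ⟨t, ht⟩ := h2 (Y w) (by rw [← hYT, hTw, map_neg, kk_comm hYX])
  have hYp : ∀ n : ℕ, ∀ u, (Y ^ n) (X u) = X ((Y ^ n) u) := by
    intro n
    induction n with
    | zero => intro u; rfl
    | succ n ih => intro u; rw [pow_succ', Module.End.mul_apply, Module.End.mul_apply, ih, hYX]
  rw [map_add, kk_comm (hYp 24), kk_comm (hYp 24), pow24_of_eig h5 hYX hY (hX v) hs, pow24_of_eig h5 hYX hY (hX w) ht]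
  rfl

end eig

section core

variable {F V : Type*} [Field F] [AddCommGroup V] [Module F V] {B : LinearMap.BilinForm F V}

/-- linear maps from linear semisimilitudes -/
def en {M : SS B} (h : M.IsLin) : Module.End F V := h.lin.toLinearMap

theorem en_apply {M : SS B} (h : M.IsLin) (v : V) : en h v = M v := rfl

theorem en_pow {M : SS B} (h : M.IsLin) (n : ℕ) (v : V) : (en h ^ n) v = M^[n] v := by
  rw [Module.End.pow_apply]
  rfl

/-- `+`-eigenvectors -/
theorem exists_eig {X T : Module.End F V} (hX : ∀ v, X (X v) + X v + v = 0) (hc : ∀ v, T (X v) = X (T v)) {a : F}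
    (hT2 : ∀ v, T (T v) = a • v) {p : F × F} (hp : mulP p p = (a, 0)) :
    ((∃ u, T u ≠ - kk X p u) → ∃ v, v ≠ 0 ∧ T v = kk X p v) ∧
      ((∃ u, T u ≠ kk X p u) → ∃ v, v ≠ 0 ∧ T v = - kk X p v) := by
  have h1 : ∀ u, kk X p (kk X p u) = a • u := by
    intro u
    rw [kk_kk p p (hX u), hp, kk_apply, zero_smul, add_zero]
  constructor
  · rintro ⟨u, hu⟩
    refine ⟨T u + kk X p u, fun h => hu (eq_neg_of_add_eq_zero_left h), ?_⟩
    rw [map_add, hT2, kk_comm hc, map_add (kk X p), h1, add_comm]
  · rintro ⟨u, hu⟩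
    refine ⟨T u - kk X p u, fun h => hu (sub_eq_zero.1 h), ?_⟩
    rw [map_sub, hT2, kk_comm hc, map_sub (kk X p), h1]
    abel

variable [Finite F] [FiniteDimensional F V]

/-- the data -/
structure Dat {ι : Type*} (M : ι → SS B) (r : ι → ℕ) (i j : ι) (a : F) : Prop where
  h5 : Nat.card F = 5
  h4 : finrank F V = 4
  hB : NAlt B
  hp : ∀ i, (r i).Prime
  hinj : Function.Injective r
  hl : ∀ i, (M i).IsLin
  hc : ∀ i j v, M i (M j v) = M j (M i v)
  hns : ∀ i, ¬ (M i).IsScal
  hr : ∀ i, r i ≠ 2 → (∀ v, (M i)^[r i] v = v) ∧ (M i).l = 1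
  hi : r i = 2
  hj : r j = 3
  ha : a ≠ 0
  hT2 : ∀ v, M i (M i v) = a • v

namespace Dat

variable {ι : Type*} {M : ι → SS B} {r : ι → ℕ} {i j : ι} {a : F} (D : Dat M r i j a)
include D

theorem cop {k : ι} (hk : k ≠ i) (hk' : k ≠ j) : (r k).Coprime 24 := by
  have h1 := D.hp k
  have h2 : ¬ r k ∣ 24 := by
    intro h
    have h3 : r k ∈ Nat.primeFactors 24 := Nat.mem_primeFactors.2 ⟨h1, h, by norm_num⟩
    have h4 : Nat.primeFactors 24 = {2, 3} := by decide +kernel
    rw [h4, Finset.mem_insert, Finset.mem_singleton] at h3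
    rcases h3 with h | h
    · exact hk (D.hinj (h.trans D.hi.symm))
    · exact hk' (D.hinj (h.trans D.hj.symm))
  exact (Nat.Prime.coprime_iff_not_dvd h1).2 h2

theorem cop' {k : ι} (hk : k ≠ i) (hk' : k ≠ j) (h5 : r k ≠ 5) : (r k).Coprime 30 := by
  have h1 := D.hp k
  have h2 : ¬ r k ∣ 30 := by
    intro h
    have h3 : r k ∈ Nat.primeFactors 30 := Nat.mem_primeFactors.2 ⟨h1, h, by norm_num⟩
    have h4 : Nat.primeFactors 30 = {2, 3, 5} := by decide +kernel
    rw [h4, Finset.mem_insert, Finset.mem_insert, Finset.mem_singleton] at h3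
    rcases h3 with h | h | h
    · exact hk (D.hinj (h.trans D.hi.symm))
    · exact hk' (D.hinj (h.trans D.hj.symm))
    · exact h5 h
  exact (Nat.Prime.coprime_iff_not_dvd h1).2 h2

theorem pow_eq {k : ι} (hk : k ≠ i) : en (D.hl k) ^ (r k) = 1 := by
  apply LinearMap.ext
  intro v
  rw [en_pow, (D.hr k fun h => hk (D.hinj (h.trans D.hi.symm))).1]
  rfl

theorem isom {k : ι} (hk : k ≠ i) (u v : V) : B (M k u) (M k v) = B u v := by
  rw [(D.hl k).form, (D.hr k fun h => hk (D.hinj (h.trans D.hi.symm))).2, one_mul]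

theorem ne_one (k : ι) : en (D.hl k) ≠ 1 := by
  intro h
  exact D.hns k ⟨1, one_ne_zero, fun v => by rw [one_smul]; exact LinearMap.congr_fun h v⟩

theorem two_ne : i ≠ j := by
  rintro rfl
  have := D.hi.symm.trans D.hj
  omega

theorem mul_sq : (M i).l = a ∨ (M i).l = -a := by
  have : Nontrivial V := Module.nontrivial_of_finrank_pos (R := F) (by rw [D.h4]; norm_num)
  obtain ⟨u, hu⟩ := exists_ne (0 : V)
  obtain ⟨v, huv⟩ := D.hB.exists_one hu
  have h1 : B (M i (M i u)) (M i (M i v)) = (M i).l * ((M i).l * B u v) := by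
    rw [(D.hl i).form, (D.hl i).form]
  rw [D.hT2, D.hT2, map_smul, LinearMap.map_smul₂, huv, smul_eq_mul, smul_eq_mul] at h1
  have h2 : ((M i).l - a) * ((M i).l + a) = 0 := by linear_combination -h1
  rcases mul_eq_zero.1 h2 with h | h
  · exact Or.inl (sub_eq_zero.1 h)
  · exact Or.inr (eq_neg_of_add_eq_zero_left h)

/-- if both eigenspaces of `T` over `F[X]` are nonzero there are only two members -/
theorem only_two (hX : ∀ v, M j (M j v) + M j v + v = 0) {l : F × F} (hl : mulP l l = (a, 0)) {v w : V} (hv : v ≠ 0)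
    (hw : w ≠ 0) (hTv : M i v = kk (en (D.hl j)) l v) (hTw : M i w = - kk (en (D.hl j)) l w) (k : ι) : k = i ∨ k = j := by
  by_contra hno
  push Not at hno
  apply D.ne_one k
  apply eq_one_of_cop (D.cop hno.1 hno.2) (D.pow_eq hno.1)
  exact eig_pow D.h5 D.h4 (X := en (D.hl j)) (T := en (D.hl i)) hX (fun v => D.hc i j v) D.ha hl hv hw hTv hTw
    (fun v => D.hc k j v) (fun v => D.hc k i v) (M k).injective

/-- the case `X ^ 2 + X + 1 = 0` -/
theorem core_b (hX : ∀ v, M j (M j v) + M j v + v = 0) :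
    (∃ A : Submodule F V, A ≠ ⊥ ∧ A ≠ ⊤ ∧ (∀ a ∈ A, (∀ b ∈ A, B a b = 0) → a = 0) ∧ (∀ k, ∀ v ∈ A, M k v ∈ A) ∧
      (∀ k, ¬ (r k).Coprime (Nat.card F) → ¬ (M k).ScalOn A) ∧
      ∀ k k', ¬ (M k).ScalOn A → ¬ (M k').ScalOn A → k = k') ∨
    (∃ W W' : Submodule F V, IsCompl W W' ∧ (∀ u ∈ W, ∀ v ∈ W, B u v = 0) ∧ (∀ u ∈ W', ∀ v ∈ W', B u v = 0) ∧
      (∀ k, ∀ v ∈ W, M k v ∈ W) ∧ (∀ k, ∀ v ∈ W', M k v ∈ W') ∧
      ∀ k k', ¬ (M k).ScalOn W → ¬ (M k').ScalOn W → k = k') ∨
    (¬ IsSquare a ∧ (M i).l = a) ∨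
    (¬ IsSquare a ∧ (M i).l = -a ∧
      ∀ k k', (¬ ∃ a b : F, ∀ v, M k v = a • v + b • M i v) → (¬ ∃ a b : F, ∀ v, M k' v = a • v + b • M i v) →
        k = k') := by
  have h2 := five_two D.h5
  have heig := fun p hp => exists_eig (X := en (D.hl j)) (T := en (D.hl i)) hX (fun v => D.hc i j v) D.hT2 (p := p) hp
  rcases five_sqrt D.h5 D.ha with ⟨l, hl⟩ | ⟨hsq, p, hp2, hp⟩
  · have hl0 : l ≠ 0 := by rintro rfl; exact D.ha (by rw [← hl, mul_zero])
    have hk : ∀ v, kk (en (D.hl j)) (l, 0) v = l • v := by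
      intro v
      rw [kk_apply, zero_smul, add_zero]
    have hL : mulP ((l, 0) : F × F) (l, 0) = (a, 0) := by
      ext
      · show l * l - 0 * 0 = a
        rw [hl]; ring
      · show l * 0 + 0 * l - 0 * 0 = 0
        ring
    obtain ⟨e1, e2⟩ := heig (l, 0) hL
    obtain ⟨v, hv, hTv⟩ := e1 (by
      by_contra hno
      push Not at hno
      refine D.hns i ⟨-l, neg_ne_zero.2 hl0, fun u => ?_⟩
      have := hno u
      rw [hk] at this
      rw [neg_smul]
      exact this)
    obtain ⟨w, hw, hTw⟩ := e2 (by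
      by_contra hno
      push Not at hno
      refine D.hns i ⟨l, hl0, fun u => ?_⟩
      have := hno u
      rw [hk] at this
      exact this)
    have honly := D.only_two hX hL hv hw hTv hTw
    rw [hk] at hTv hTw
    have hTv' : M i v = l • v := hTv
    have hTw' : M i w = - (l • w) := hTw
    have hscal : (M i).ScalOn (Module.End.eigenspace (en (D.hl i)) l) :=
      ⟨l, hl0, fun u hu => Module.End.mem_eigenspace_iff.1 hu⟩
    have hone : ∀ k k', ¬ (M k).ScalOn (Module.End.eigenspace (en (D.hl i)) l) →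
        ¬ (M k').ScalOn (Module.End.eigenspace (en (D.hl i)) l) → k = k' := by
      intro k k' hk hk'
      rcases honly k with rfl | rfl
      · exact (hk hscal).elim
      rcases honly k' with rfl | rfl
      · exact (hk' hscal).elim
      · rfl
    have hinv : ∀ (c : F) k, ∀ v ∈ Module.End.eigenspace (en (D.hl i)) c, M k v ∈ Module.End.eigenspace (en (D.hl i)) c := by
      intro c k v hv
      rw [Module.End.mem_eigenspace_iff] at hv ⊢
      show M i (M k v) = c • M k v
      rw [D.hc i k, ← (D.hl k).map_smul]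
      exact congrArg (M k) hv
    have hform : ∀ u v, a * B u v = 0 → B u v = 0 := fun u v h => (mul_eq_zero.1 h).resolve_left D.ha
    rcases D.mul_sq with hm | hm
    · left
      refine ⟨Module.End.eigenspace (en (D.hl i)) l, ?_, ?_, ?_, hinv l, ?_, hone⟩
      · intro h0
        apply hv
        have h3 : v ∈ Module.End.eigenspace (en (D.hl i)) l := Module.End.mem_eigenspace_iff.2 hTv
        rw [h0] at h3
        exact (Submodule.mem_bot F).1 h3
      · intro h0
        apply D.hns i
        refine ⟨l, hl0, fun u => ?_⟩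
        have h3 : u ∈ Module.End.eigenspace (en (D.hl i)) l := by rw [h0]; trivial
        exact Module.End.mem_eigenspace_iff.1 h3
      · intro z hz hb
        apply D.hB.nd
        intro y
        have hTz : M i z = l • z := Module.End.mem_eigenspace_iff.1 hz
        -- y = y1 + y2
        have h3 : B z (M i y + l • y) = 0 := by
          apply hb
          rw [Module.End.mem_eigenspace_iff]
          show M i (M i y + l • y) = _
          rw [(M i).map_add, (D.hl i).map_smul, D.hT2, ← hl]
          module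
        have h4 : B z (M i y - l • y) = 0 := by
          apply hform
          have h5 : B (M i z) (M i (M i y - l • y)) = a * B z (M i y - l • y) := by rw [(D.hl i).form, hm]
          have h6 : M i (M i y - l • y) = - (l • (M i y - l • y)) := by
            rw [(M i).map_sub, (D.hl i).map_smul, D.hT2, ← hl]
            module
          rw [h6, hTz, map_neg, map_smul, LinearMap.map_smul₂, smul_eq_mul, smul_eq_mul] at h5
          have h7 : (2 : F) * (a * B z (M i y - l • y)) = 0 := by rw [← hl] at h5 ⊢; linear_combination -h5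
          exact (mul_eq_zero.1 h7).resolve_left h2
        rw [map_add, map_smul, smul_eq_mul] at h3
        rw [map_sub, map_smul, smul_eq_mul] at h4
        have h7 : (2 * l) * B z y = 0 := by linear_combination h3 - h4
        exact (mul_eq_zero.1 h7).resolve_left (mul_ne_zero h2 hl0)
      · intro k hk
        exfalso
        apply hk
        rw [D.h5]
        rcases honly k with rfl | rfl
        · rw [D.hi]; norm_num
        · rw [D.hj]; norm_num
    · right; left
      refine ⟨Module.End.eigenspace (en (D.hl i)) l, Module.End.eigenspace (en (D.hl i)) (-l), ?_, ?_, ?_, hinv l,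
        hinv (-l), hone⟩
      · constructor
        · rw [Submodule.disjoint_def]
          intro z hz hz'
          rw [Module.End.mem_eigenspace_iff] at hz hz'
          have h3 : ((2 : F) * l) • z = 0 := by
            have h4 : ((2 : F) * l) • z = l • z - (-l) • z := by module
            rw [h4, ← hz, ← hz', sub_self]
          exact (smul_eq_zero.1 h3).resolve_left (mul_ne_zero h2 hl0)
        · rw [codisjoint_iff, eq_top_iff]
          intro z _
          rw [Submodule.mem_sup]
          refine ⟨((2 : F) * l)⁻¹ • (M i z + l • z), ?_, ((2 : F) * l)⁻¹ • (l • z - M i z), ?_, ?_⟩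
          · apply Submodule.smul_mem
            rw [Module.End.mem_eigenspace_iff]
            show M i (M i z + l • z) = _
            rw [(M i).map_add, (D.hl i).map_smul, D.hT2, ← hl]
            module
          · apply Submodule.smul_mem
            rw [Module.End.mem_eigenspace_iff]
            show M i (l • z - M i z) = _
            rw [(M i).map_sub, (D.hl i).map_smul, D.hT2, ← hl]
            module
          · rw [← smul_add]
            have h3 : M i z + l • z + (l • z - M i z) = ((2 : F) * l) • z := by module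
            rw [h3, inv_smul_smul₀ (mul_ne_zero h2 hl0)]
      · intro u hu v hv
        rw [Module.End.mem_eigenspace_iff] at hu hv
        have hu' : M i u = l • u := hu
        have hv' : M i v = l • v := hv
        have h3 := (D.hl i).form u v
        rw [hu', hv', map_smul, LinearMap.map_smul₂, smul_eq_mul, smul_eq_mul, hm] at h3
        apply hform
        have h7 : (2 : F) * (a * B u v) = 0 := by rw [← hl] at h3 ⊢; linear_combination h3
        exact (mul_eq_zero.1 h7).resolve_left h2
      · intro u hu v hv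
        rw [Module.End.mem_eigenspace_iff] at hu hv
        have hu' : M i u = (-l) • u := hu
        have hv' : M i v = (-l) • v := hv
        have h3 := (D.hl i).form u v
        rw [hu', hv', map_smul, LinearMap.map_smul₂, smul_eq_mul, smul_eq_mul, hm] at h3
        apply hform
        have h7 : (2 : F) * (a * B u v) = 0 := by rw [← hl] at h3 ⊢; linear_combination h3
        exact (mul_eq_zero.1 h7).resolve_left h2
  · right; right
    rcases D.mul_sq with hm | hm
    · exact Or.inl ⟨hsq, hm⟩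
    refine Or.inr ⟨hsq, hm, ?_⟩
    have hTi : ∃ a b : F, ∀ v, M i v = a • v + b • M i v := ⟨0, 1, fun v => by rw [zero_smul, one_smul, zero_add]⟩
    by_cases hj' : ∃ a b : F, ∀ v, M j v = a • v + b • M i v
    · have h5 : ∀ k, (¬ ∃ a b : F, ∀ v, M k v = a • v + b • M i v) → r k = 5 := by
        intro k hk
        have hki : k ≠ i := by rintro rfl; exact hk hTi
        have hkj : k ≠ j := by rintro rfl; exact hk hj'
        by_contra hk5
        apply D.ne_one k
        exact excl D.h5 D.h4 D.hB (X := en (D.hl j)) hX (D.isom D.two_ne.symm) (D.isom hki) (fun v => D.hc k j v)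
          (D.cop' hki hkj hk5) (D.pow_eq hki)
      intro k k' hk hk'
      exact D.hinj ((h5 k hk).trans (h5 k' hk').symm)
    · obtain ⟨e1, e2⟩ := heig p hp
      obtain ⟨v, hv, hTv⟩ := e1 (by
        by_contra hno
        push Not at hno
        apply hj'
        refine ⟨-(p.2⁻¹ * p.1), -p.2⁻¹, fun u => ?_⟩
        have h3 : M i u = - (p.1 • u + p.2 • M j u) := hno u
        rw [h3, smul_neg, smul_add, smul_smul, smul_smul, neg_mul, neg_mul, inv_mul_cancel₀ hp2]
        module)
      obtain ⟨w, hw, hTw⟩ := e2 (by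
        by_contra hno
        push Not at hno
        apply hj'
        refine ⟨-(p.2⁻¹ * p.1), p.2⁻¹, fun u => ?_⟩
        have h3 : M i u = p.1 • u + p.2 • M j u := hno u
        rw [h3, smul_add, smul_smul, smul_smul, inv_mul_cancel₀ hp2]
        module)
      have honly := D.only_two hX hp hv hw hTv hTw
      intro k k' hk hk'
      rcases honly k with rfl | rfl
      · exact (hk hTi).elim
      rcases honly k' with rfl | rfl
      · exact (hk' hTi).elim
      · rfl

/-- the case with fixed vectors of `X` -/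
theorem core_a (hX : ∃ v, M j (M j v) + M j v + v ≠ 0) :
    ∃ A : Submodule F V, A ≠ ⊥ ∧ A ≠ ⊤ ∧ (∀ a ∈ A, (∀ b ∈ A, B a b = 0) → a = 0) ∧ (∀ k, ∀ v ∈ A, M k v ∈ A) ∧
      (∀ k, ¬ (r k).Coprime (Nat.card F) → ¬ (M k).ScalOn A) ∧
      ∀ k k', ¬ (M k).ScalOn A → ¬ (M k').ScalOn A → k = k' := by
  have h2 := five_two D.h5
  have h3 := five_three D.h5
  have hX3 : ∀ v, M j (M j (M j v)) = v := by
    intro v
    have h := (D.hr j (by rw [D.hj]; norm_num)).1 v
    rw [D.hj] at h
    exact h
  set X := en (D.hl j) with hXdef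
  have hXa : ∀ v, X v = M j v := fun v => rfl
  set V1 := Module.End.eigenspace X 1
  set V2 := LinearMap.ker (X * X + X + 1)
  have m1 : ∀ v, v ∈ V1 ↔ M j v = v := by
    intro v
    rw [Module.End.mem_eigenspace_iff, one_smul]
    rfl
  have m2 : ∀ v, v ∈ V2 ↔ M j (M j v) + M j v + v = 0 := fun v => LinearMap.mem_ker
  have hV1 : V1 ≠ ⊥ := by
    intro h0
    obtain ⟨v, hv⟩ := hX
    apply hv
    have h4 : M j (M j v) + M j v + v ∈ V1 := by
      rw [m1, (M j).map_add, (M j).map_add, hX3]
      abel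
    rw [h0] at h4
    exact (Submodule.mem_bot F).1 h4
  have hV1' : V1 ≠ ⊤ := by
    intro h0
    apply D.ne_one j
    apply LinearMap.ext
    intro v
    have h4 : v ∈ V1 := by rw [h0]; trivial
    exact (m1 v).1 h4
  have hdec : ∀ v, ∃ v1 ∈ V1, ∃ v2 ∈ V2, v = v1 + v2 := by
    intro v
    refine ⟨(3 : F)⁻¹ • (M j (M j v) + M j v + v), V1.smul_mem _ ?_,
      (3 : F)⁻¹ • ((2 : F) • v - M j v - M j (M j v)), V2.smul_mem _ ?_, ?_⟩
    · rw [m1, (M j).map_add, (M j).map_add, hX3]
      abel
    · rw [m2]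
      simp only [(M j).map_sub, (D.hl j).map_smul, hX3]
      module
    · rw [← smul_add]
      have h4 : M j (M j v) + M j v + v + ((2 : F) • v - M j v - M j (M j v)) = (3 : F) • v := by module
      rw [h4, inv_smul_smul₀ h3]
  have hdis : ∀ v, v ∈ V1 → v ∈ V2 → v = 0 := by
    intro v hv hv'
    rw [m1] at hv
    rw [m2, hv, hv] at hv'
    have h4 : (3 : F) • v = 0 := by rw [← hv']; module
    exact (smul_eq_zero.1 h4).resolve_left h3
  have hcompl : IsCompl V1 V2 := by
    constructor
    · rw [Submodule.disjoint_def]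
      exact hdis
    · rw [codisjoint_iff, eq_top_iff]
      intro z _
      obtain ⟨a, ha, b, hb, rfl⟩ := hdec z
      exact Submodule.add_mem_sup ha hb
  have horth : ∀ u ∈ V1, ∀ w ∈ V2, B u w = 0 := by
    intro u hu w hw
    rw [m1] at hu
    rw [m2] at hw
    have h4 : ∀ w, B u (M j w) = B u w := by
      intro w
      conv_lhs => rw [← hu]
      exact D.isom D.two_ne.symm u w
    have h5 : B u (M j (M j w) + M j w + w) = 0 := by rw [hw, map_zero]
    rw [map_add, map_add, h4, h4] at h5
    have h6 : (3 : F) * B u w = 0 := by linear_combination h5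
    exact (mul_eq_zero.1 h6).resolve_left h3
  have hnd1 : ∀ a ∈ V1, (∀ b ∈ V1, B a b = 0) → a = 0 := by
    intro a ha hb
    apply D.hB.nd
    intro y
    obtain ⟨y1, h4, y2, h5, rfl⟩ := hdec y
    rw [map_add, hb _ h4, horth _ ha _ h5, add_zero]
  have hnd2 : ∀ a ∈ V2, (∀ b ∈ V2, B a b = 0) → a = 0 := by
    intro a ha hb
    apply D.hB.nd
    intro y
    obtain ⟨y1, h4, y2, h5, rfl⟩ := hdec y
    rw [map_add, hb _ h5, D.hB.swap0 (horth _ h4 _ ha), add_zero]
  have hdim : finrank F V1 = 2 ∧ finrank F V2 = 2 := by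
    have e1 : NAlt (B.restrict V1) := ⟨fun x => D.hB.alt x, fun x hx => Subtype.ext (hnd1 x x.2 fun b hb => hx ⟨b, hb⟩)⟩
    have e2 : NAlt (B.restrict V2) := ⟨fun x => D.hB.alt x, fun x hx => Subtype.ext (hnd2 x x.2 fun b hb => hx ⟨b, hb⟩)⟩
    obtain ⟨n1, hn1⟩ := exists_dim e1
    obtain ⟨n2, hn2⟩ := exists_dim e2
    have h4 := Submodule.finrank_add_eq_of_isCompl hcompl
    have h5 := D.h4
    have h6 : finrank F V1 ≠ 0 := fun h => hV1 (Submodule.finrank_eq_zero.1 h)
    have h7 : finrank F V2 ≠ 0 := by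
      intro h
      apply hV1'
      have h8 : V2 = ⊥ := Submodule.finrank_eq_zero.1 h
      have h9 := hcompl.sup_eq_top
      rwa [h8, sup_bot_eq] at h9
    omega
  have hi1 : ∀ k, ∀ v ∈ V1, M k v ∈ V1 := by
    intro k v hv
    rw [m1] at hv ⊢
    rw [D.hc j k, hv]
  have hi2 : ∀ k, ∀ v ∈ V2, M k v ∈ V2 := by
    intro k v hv
    rw [m2] at hv ⊢
    rw [D.hc j k, D.hc j k, ← (M k).map_add, ← (M k).map_add, hv, (M k).map_zero]
  -- other members
  have hY2 : ∀ k, k ≠ i → ∀ w ∈ V2, (en (D.hl k) ^ 24) w = w := by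
    intro k hk w hw
    by_cases hw0 : w = 0
    · rw [hw0, map_zero]
    have hw' := (m2 w).1 hw
    have hXw : M j w ∈ V2 := hi2 j w hw
    have hli : LinearIndependent F ![(⟨w, hw⟩ : V2), ⟨M j w, hXw⟩] := by
      rw [LinearIndependent.pair_iff]
      intro s t hst
      have h1 : s • w + t • M j w = 0 := congrArg Subtype.val hst
      have h4 : ((s, t) : F × F) = 0 := by
        by_contra hne
        exact hw0 (kk_ne_zero D.h5 (X := X) hne hw' h1)
      exact ⟨congrArg Prod.fst h4, congrArg Prod.snd h4⟩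
    have hsp : Submodule.span F (Set.range ![(⟨w, hw⟩ : V2), ⟨M j w, hXw⟩]) = ⊤ :=
      hli.span_eq_top_of_card_eq_finrank (by rw [hdim.2]; rfl)
    have hz : (⟨M k w, hi2 k w hw⟩ : V2) ∈ Submodule.span F (Set.range ![(⟨w, hw⟩ : V2), ⟨M j w, hXw⟩]) := by
      rw [hsp]; trivial
    obtain ⟨c, hc⟩ := (Submodule.mem_span_range_iff_exists_fun F).1 hz
    rw [Fin.sum_univ_two] at hc
    have hc' : c 0 • w + c 1 • M j w = M k w := congrArg Subtype.val hc
    exact pow24_of_eig D.h5 (X := X) (Y := en (D.hl k)) (fun v => D.hc k j v) (M k).injective (p := (c 0, c 1)) hw'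
      hc'.symm
  have hY1 : ∀ k, k ≠ i → ∀ w ∈ V1, (en (D.hl k) ^ 60) w = w := by
    intro k hk w hw
    exact pow60_plane D.h5 D.hB.alt hdim.1 hnd1 (fun u _ v _ => D.isom hk u v) (hi1 k) hw
  have hr5 : ∀ k, k ≠ i → k ≠ j → r k = 5 := by
    intro k hk hk'
    by_contra h5
    apply D.ne_one k
    have h6 : (r k).Coprime 120 := by
      have h7 := D.cop' hk hk' h5
      exact Nat.Coprime.coprime_dvd_right (by norm_num : 120 ∣ 30 ^ 3) (h7.pow_right 3)
    apply eq_one_of_cop h6 (D.pow_eq hk)
    apply LinearMap.ext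
    intro v
    obtain ⟨v1, h4, v2, h5, rfl⟩ := hdec v
    have e1 : (en (D.hl k) ^ 120) v1 = v1 := by
      rw [show 120 = 60 + 60 by norm_num, pow_add, Module.End.mul_apply, hY1 k hk v1 h4, hY1 k hk v1 h4]
    have e2 : (en (D.hl k) ^ 120) v2 = v2 := by
      rw [show 120 = 24 + 24 + 24 + 24 + 24 by norm_num, pow_add, pow_add, pow_add, pow_add, Module.End.mul_apply,
        Module.End.mul_apply, Module.End.mul_apply, Module.End.mul_apply, hY2 k hk v2 h5, hY2 k hk v2 h5,
        hY2 k hk v2 h5, hY2 k hk v2 h5, hY2 k hk v2 h5]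
    rw [map_add, e1, e2]
    rfl
  have hY5 : ∀ k, r k = 5 → ∀ w ∈ V2, M k w = w := by
    intro k hk w hw
    have hki : k ≠ i := by rintro rfl; rw [D.hi] at hk; omega
    have e1 := hY2 k hki w hw
    have e2 : (en (D.hl k) ^ 25) w = w := by
      have h4 := D.pow_eq hki
      rw [hk] at h4
      rw [show 25 = 5 * 5 by norm_num, pow_mul, h4, one_pow]
      rfl
    rw [pow_succ', Module.End.mul_apply, e1] at e2
    exact e2
  have hY5' : ∀ k, r k = 5 → ∃ w ∈ V1, M k w ≠ w := by
    intro k hk
    by_contra hno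
    push Not at hno
    apply D.ne_one k
    apply LinearMap.ext
    intro v
    obtain ⟨v1, h4, v2, h5, rfl⟩ := hdec v
    rw [map_add, en_apply, en_apply, hno v1 h4, hY5 k hk v2 h5]
    rfl
  have hTs : (∃ k, r k = 5) → (M i).ScalOn V1 := by
    rintro ⟨k, hk⟩
    by_contra hns
    have hki : k ≠ i := by rintro rfl; rw [D.hi] at hk; omega
    obtain ⟨v, hv, hTv⟩ : ∃ v ∈ V1, ∀ c : F, M i v ≠ c • v := by
      by_contra hno
      push Not at hno
      obtain ⟨c, hc⟩ := scal_of_lines (F := F) (V := V1) hdim.1.ge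
        ({ toFun := fun v => ⟨M i v, hi1 i v v.2⟩
           map_zero' := Subtype.ext (M i).map_zero
           map_add' := fun u v => Subtype.ext ((M i).map_add u v) } : V1 →+ V1)
        (fun v => by
          obtain ⟨c, hc⟩ := hno v v.2
          exact ⟨c, Subtype.ext hc⟩)
      apply hns
      refine ⟨c, ?_, fun v hv => congrArg Subtype.val (hc ⟨v, hv⟩)⟩
      rintro rfl
      apply hV1
      rw [eq_bot_iff]
      intro v hv
      have h4 : M i v = (0 : F) • v := congrArg Subtype.val (hc ⟨v, hv⟩)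
      rw [zero_smul] at h4
      rw [Submodule.mem_bot]
      apply (M i).injective
      rw [h4, (M i).map_zero]
    have hv0 : v ≠ 0 := by
      rintro rfl
      exact hTv 0 (by rw [(M i).map_zero, smul_zero])
    have hTv1 : M i v ∈ V1 := hi1 i v hv
    have hli : LinearIndependent F ![(⟨v, hv⟩ : V1), ⟨M i v, hTv1⟩] := by
      rw [LinearIndependent.pair_iff]
      intro s t hst
      have h1 : s • v + t • M i v = 0 := congrArg Subtype.val hst
      have ht : t = 0 := by
        by_contra ht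
        apply hTv (-(t⁻¹ * s))
        have h4 : t • M i v = t • (-(t⁻¹ * s)) • v := by
          rw [smul_smul, mul_neg, mul_inv_cancel_left₀ ht, neg_smul]
          exact eq_neg_of_add_eq_zero_right h1
        exact smul_right_injective V ht h4
      rw [ht, zero_smul, add_zero] at h1
      exact ⟨(smul_eq_zero.1 h1).resolve_right hv0, ht⟩
    have hsp : Submodule.span F (Set.range ![(⟨v, hv⟩ : V1), ⟨M i v, hTv1⟩]) = ⊤ :=
      hli.span_eq_top_of_card_eq_finrank (by rw [hdim.1]; rfl)
    have hspan : ∀ w ∈ V1, ∃ s t : F, w = s • v + t • M i v := by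
      intro w hw
      have hz : (⟨w, hw⟩ : V1) ∈ Submodule.span F (Set.range ![(⟨v, hv⟩ : V1), ⟨M i v, hTv1⟩]) := by rw [hsp]; trivial
      obtain ⟨c, hc⟩ := (Submodule.mem_span_range_iff_exists_fun F).1 hz
      rw [Fin.sum_univ_two] at hc
      exact ⟨c 0, c 1, (congrArg Subtype.val hc).symm⟩
    obtain ⟨α, β, hU⟩ := hspan (M k v) (hi1 k v hv)
    have hU' : M k (M i v) = α • M i v + (β * a) • v := by
      rw [D.hc k i, hU, (M i).map_add, (D.hl i).map_smul, (D.hl i).map_smul, D.hT2, smul_smul]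
    have hU5 : M k (M k (M k (M k (M k v)))) = v := by
      have h := (D.hr k (by rw [hk]; norm_num)).1 v
      rw [hk] at h
      exact h
    have h0 := five_zero D.h5
    have e5 : M k (M k (M k (M k (M k v)))) = (α ^ 5) • v + (β ^ 5 * a ^ 2) • M i v +
        (5 : F) • ((2 * α ^ 3 * β ^ 2 * a + α * β ^ 4 * a ^ 2) • v + (α ^ 4 * β + 2 * α ^ 2 * β ^ 3 * a) • M i v) := by
      simp only [hU, (M k).map_add, (D.hl k).map_smul, hU']
      module
    rw [e5, h0, zero_smul, add_zero] at hU5
    have h6 : (α ^ 5 - 1) • (⟨v, hv⟩ : V1) + (β ^ 5 * a ^ 2) • (⟨M i v, hTv1⟩ : V1) = 0 := by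
      apply Subtype.ext
      show (α ^ 5 - 1) • v + (β ^ 5 * a ^ 2) • M i v = 0
      rw [sub_smul, one_smul]
      rw [← sub_eq_zero] at hU5
      rw [← hU5]
      abel
    obtain ⟨h7, h8⟩ := LinearIndependent.pair_iff.1 hli _ _ h6
    have hβ : β = 0 := by
      rcases mul_eq_zero.1 h8 with h | h
      · exact pow_eq_zero_iff (by norm_num) |>.1 h
      · exact (D.ha (pow_eq_zero_iff (by norm_num) |>.1 h)).elim
    have hα0 : α ≠ 0 := by
      rintro rfl
      norm_num at h7
    have hα : α = 1 := by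
      have h9 := five_pow4 D.h5 hα0
      have h10 : α ^ 5 = α := by rw [pow_succ, h9, one_mul]
      rw [h10] at h7
      exact sub_eq_zero.1 h7
    obtain ⟨w, hw, hne⟩ := hY5' k hk
    apply hne
    obtain ⟨s, t, rfl⟩ := hspan w hw
    rw [(M k).map_add, (D.hl k).map_smul, (D.hl k).map_smul, hU', hU, hα, hβ, zero_mul, zero_smul, zero_smul, one_smul,
      one_smul, add_zero, add_zero]
  refine ⟨V1, hV1, hV1', hnd1, hi1, ?_, ?_⟩
  · intro k hk hs
    have hk5 : r k = 5 := by
      by_contra h5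
      apply hk
      rw [D.h5]
      exact (Nat.coprime_primes (D.hp k) (by norm_num)).2 h5
    obtain ⟨w, hw, hne⟩ := hY5' k hk5
    obtain ⟨c, hc0, hc⟩ := hs
    have hki : r k ≠ 2 := by rw [hk5]; norm_num
    have hU5 : M k (M k (M k (M k (M k w)))) = w := by
      have h := (D.hr k hki).1 w
      rw [hk5] at h
      exact h
    simp only [hc w hw, (D.hl k).map_smul, smul_smul] at hU5
    have hw0 : w ≠ 0 := by
      rintro rfl
      exact hne (M k).map_zero
    have h4 : (c * c * c * c * c - 1) • w = 0 := by rw [sub_smul, hU5, one_smul, sub_self]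
    have h5 := (smul_eq_zero.1 h4).resolve_right hw0
    have h6 := five_pow4 D.h5 hc0
    have h7 : c = 1 := by linear_combination h5 - c * h6
    apply hne
    rw [hc w hw, h7, one_smul]
  · intro k k' hk hk'
    have hkj : k ≠ j := by
      rintro rfl
      exact hk ⟨1, one_ne_zero, fun v hv => by rw [one_smul]; exact (m1 v).1 hv⟩
    have hkj' : k' ≠ j := by
      rintro rfl
      exact hk' ⟨1, one_ne_zero, fun v hv => by rw [one_smul]; exact (m1 v).1 hv⟩
    by_cases h5 : ∃ k, r k = 5
    · have hki : k ≠ i := by rintro rfl; exact hk (hTs h5)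
      have hki' : k' ≠ i := by rintro rfl; exact hk' (hTs h5)
      exact D.hinj ((hr5 k hki hkj).trans (hr5 k' hki' hkj').symm)
    · have hki : k = i := by
        by_contra hki
        exact h5 ⟨k, hr5 k hki hkj⟩
      have hki' : k' = i := by
        by_contra hki'
        exact h5 ⟨k', hr5 k' hki' hkj'⟩
      rw [hki, hki']

end Dat

end core

end Cfsg.Agent.H63.RC
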